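-- Team project BRA (S4484): package [Bli] (helper9).
import Mathlib
import Cfsg.Agent.Lib.Helper95.BRA.Defs

set_option autoImplicit false

open scoped Matrix ComplexConjugate

namespace Cfsg.Agent.Lib.Helper9.BRA

open Cfsg Cfsg.Agent.Lib.Helper74.Jordan Cfsg.Agent.Lib.Helper95.BRA

universe u

/-- [Bli] the sharp Blichfeldt lemma for simple groups, from [B1], [B2], [B4]. -/
theorem pkgBli : PkgB1 → PkgB2 → PkgB4.{u} → PkgBli.{u} := by
  intro hB1 hB2 hB4 G _ _ _ hnab n U hU hfix x hx j₀ hS
  have hN : Nat.card G ≠ 0 := Nat.card_pos.ne'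
  have hUinv : ∀ g : G, U g⁻¹ * U g = 1 := fun g => by
    rw [← map_mul, inv_mul_cancel, map_one]
  have hUinv' : ∀ g : G, U g * U g⁻¹ = 1 := fun g => by
    rw [← map_mul, mul_inv_cancel, map_one]
  have hc1 : ∀ (g : G) (X : Matrix (Fin n) (Fin n) ℂ), U g * (U g⁻¹ * X) = X := fun g X => by
    rw [← mul_assoc, hUinv', one_mul]
  have hc2 : ∀ (g : G) (X : Matrix (Fin n) (Fin n) ℂ), U g⁻¹ * (U g * X) = X := fun g X => by
    rw [← mul_assoc, hUinv, one_mul]
  have hUH : ∀ g : G, (U g)ᴴ = U g⁻¹ := by
    intro g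
    calc (U g)ᴴ = (U g)ᴴ * (U g * U g⁻¹) := by rw [hUinv', mul_one]
      _ = ((U g)ᴴ * U g) * U g⁻¹ := by rw [mul_assoc]
      _ = U g⁻¹ := by rw [hU, one_mul]
  have hxN : U x ^ Nat.card G = 1 := by
    rw [← map_pow, pow_card_eq_one', map_one]
  obtain ⟨P, hPdef⟩ : ∃ P : Matrix (Fin n) (Fin n) ℂ, P = proj (U x) (Nat.card G) j₀ := ⟨_, rfl⟩
  have hj₀ : j₀ < Nat.card G := hS.1
  have hPne : P ≠ 0 := by rw [hPdef]; exact hS.2.1
  have hPP : P * P = P := by rw [hPdef]; exact proj_idem hN hxN hj₀
  have hPH : Pᴴ = P := by rw [hPdef]; exact proj_herm hN hxN (hU x) j₀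
  have hxP : U x * P = ev (Nat.card G) j₀ • P := by rw [hPdef]; exact mul_proj hN hxN j₀
  have hnum : ∀ w : Fin n → ℂ, w ≠ 0 → star w ⬝ᵥ (U x *ᵥ w) ≠ 0 := fun w hw =>
    (hB1 n (U x) (Nat.card G) j₀ hN hxN (hU x) hS w).2.2 hw
  have hcomm : ∀ y₁ y₂ : G, (U y₁ * P * U y₁⁻¹) * (U y₂ * P * U y₂⁻¹)
      = (U y₂ * P * U y₂⁻¹) * (U y₁ * P * U y₁⁻¹) := by
    intro y₁ y₂
    have h4 := hB4 G n U hU x j₀ hS y₁ y₂
    rw [← hPdef] at h4
    simp only [hUH] at h4
    exact h4
  -- `U x` commutes with every conjugate of `P`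
  have hx_comm : ∀ y : G, U x * (U y * P * U y⁻¹) = (U y * P * U y⁻¹) * U x := by
    intro y
    apply hB2 n (U x) (U y * P * U y⁻¹) (hU x)
    · rw [← hUH y]
      simp only [Matrix.conjTranspose_mul, Matrix.conjTranspose_conjTranspose, hPH, mul_assoc]
    · simp only [mul_assoc, hc2, hc1]
      rw [← mul_assoc P P, hPP]
    · exact hnum
    · have h1 : U x * (U y * P * U y⁻¹) * (U x)ᴴ = U (x * y) * P * U (x * y)⁻¹ := by
        rw [hUH]
        simp only [map_mul, mul_inv_rev, mul_assoc]
      rw [h1]
      exact hcomm y (x * y)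
  -- the subgroup of elements commuting with all conjugates of `P`
  let H : Subgroup G :=
    { carrier := {g | ∀ y : G, U g * (U y * P * U y⁻¹) = (U y * P * U y⁻¹) * U g}
      one_mem' := by
        intro y
        simp only [map_one, one_mul, mul_one]
      mul_mem' := by
        intro a b ha hb y
        have ha' := ha y
        have hb' := hb y
        rw [map_mul, mul_assoc, hb', ← mul_assoc, ha', mul_assoc]
      inv_mem' := by
        intro a ha y
        have ha' := ha y
        have h := congrArg (fun X => U a⁻¹ * X * U a⁻¹) ha'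
        simp only [mul_assoc, hc1, hc2, hUinv, hUinv', mul_one, one_mul] at h ⊢
        exact h.symm }
  have hHn : H.Normal := by
    constructor
    intro g hg h y
    have hg' := hg (h⁻¹ * y)
    have h2 := congrArg (fun X => U h * X * U h⁻¹) hg'
    simp only [map_mul, mul_inv_rev, inv_inv, mul_assoc, hc1, hc2, hUinv, hUinv', mul_one,
      one_mul] at h2 ⊢
    exact h2
  have hxH : x ∈ H := hx_comm
  have hHtop : H = ⊤ := by
    rcases hHn.eq_bot_or_eq_top with h | h
    · rw [h, Subgroup.mem_bot] at hxH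
      exact absurd hxH hx
    · exact h
  have hallP : ∀ g : G, U g * P = P * U g := by
    intro g
    have hg : g ∈ H := by rw [hHtop]; exact Subgroup.mem_top g
    have h := hg 1
    simpa only [map_one, inv_one, one_mul, mul_one] using h
  -- the subgroup fixing `P`
  let K : Subgroup G :=
    { carrier := {g | U g * P = P}
      one_mem' := by
        show U 1 * P = P
        rw [map_one, one_mul]
      mul_mem' := by
        intro a b ha hb
        have ha' : U a * P = P := ha
        have hb' : U b * P = P := hb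
        show U (a * b) * P = P
        rw [map_mul, mul_assoc, hb', ha']
      inv_mem' := by
        intro a ha
        have ha' : U a * P = P := ha
        show U a⁻¹ * P = P
        calc U a⁻¹ * P = U a⁻¹ * (U a * P) := by rw [ha']
          _ = P := hc2 a P }
  have hKn : K.Normal := by
    constructor
    intro g hg h
    have hg' : U g * P = P := hg
    show U (h * g * h⁻¹) * P = P
    calc U (h * g * h⁻¹) * P = U h * (U g * (U h⁻¹ * P)) := by
          simp only [map_mul, mul_assoc]
      _ = U h * (U g * (P * U h⁻¹)) := by rw [hallP h⁻¹]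
      _ = U h * (P * U h⁻¹) := by rw [← mul_assoc (U g), hg']
      _ = U h * (U h⁻¹ * P) := by rw [hallP h⁻¹]
      _ = P := hc1 h P
  rcases hKn.eq_bot_or_eq_top with hK | hK
  · -- `K = ⊥`: `x` is central
    have hcen : ∀ g : G, g * x = x * g := by
      intro g
      have h1 : U (g * x * g⁻¹) * P = U x * P := by
        calc U (g * x * g⁻¹) * P = U g * (U x * (U g⁻¹ * P)) := by
              simp only [map_mul, mul_assoc]
          _ = U g * (U x * (P * U g⁻¹)) := by rw [hallP g⁻¹]
          _ = U g * ((U x * P) * U g⁻¹) := by rw [mul_assoc]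
          _ = ev (Nat.card G) j₀ • (U g * (P * U g⁻¹)) := by
              rw [hxP, Matrix.smul_mul, Matrix.mul_smul]
          _ = ev (Nat.card G) j₀ • (U g * (U g⁻¹ * P)) := by rw [hallP g⁻¹]
          _ = ev (Nat.card G) j₀ • P := by rw [hc1]
          _ = U x * P := hxP.symm
      have h2 : x⁻¹ * (g * x * g⁻¹) ∈ K := by
        show U (x⁻¹ * (g * x * g⁻¹)) * P = P
        rw [map_mul, mul_assoc, h1]
        exact hc2 x P
      rw [hK, Subgroup.mem_bot] at h2
      have h3 : g * x * g⁻¹ = x := by
        have := congrArg (fun t => x * t) h2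
        simpa using this
      calc g * x = g * x * g⁻¹ * g := by group
        _ = x * g := by rw [h3]
    have hxc : x ∈ Subgroup.center G := Subgroup.mem_center_iff.mpr hcen
    have hctop : Subgroup.center G = ⊤ := by
      rcases (inferInstance : (Subgroup.center G).Normal).eq_bot_or_eq_top with h | h
      · rw [h, Subgroup.mem_bot] at hxc
        exact absurd hxc hx
      · exact h
    apply hnab
    intro a b
    have hb : b ∈ Subgroup.center G := by rw [hctop]; exact Subgroup.mem_top b
    exact Subgroup.mem_center_iff.mp hb a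
  · -- `K = ⊤`: the columns of `P` are fixed vectors
    apply hPne
    have hall : ∀ g : G, U g * P = P := by
      intro g
      have hg : g ∈ K := by rw [hK]; exact Subgroup.mem_top g
      exact hg
    ext a b
    have hv : P *ᵥ Pi.single b 1 = 0 := by
      apply hfix
      intro g
      rw [Matrix.mulVec_mulVec, hall g]
    have h := congrFun hv a
    simpa [Matrix.mulVec_single_one] using h

end Cfsg.Agent.Lib.Helper9.BRA
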